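import Mathlib
import Cfsg.Agent.Lib.Helper19.SPU.Defs
import Cfsg.Agent.Lib.Helper99.AltBasis

/-!
# SPU package [STD] (+ [CONG], [EVEN]): symplectic forms are congruent to the standard one
-/

set_option autoImplicit false

namespace Cfsg.Agent.Lib.Helper23.SPU

open Matrix Module Cfsg.Agent.Lib.Helper19.SPU

universe u

theorem spu_sum_alt_zero {F : Type*} [Field F] {n : Type*} [DecidableEq n] (a : n → n → F)
    (h0 : ∀ i, a i i = 0) (h1 : ∀ i j, a i j + a j i = 0) (s : Finset n) :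
    ∑ i ∈ s, ∑ j ∈ s, a i j = 0 := by
  induction s using Finset.induction_on with
  | empty => simp
  | insert x s hx ih =>
    rw [Finset.sum_insert hx, Finset.sum_insert hx]
    have h2 : ∑ i ∈ s, ∑ j ∈ insert x s, a i j = ∑ i ∈ s, a i x + ∑ i ∈ s, ∑ j ∈ s, a i j := by
      rw [← Finset.sum_add_distrib]
      exact Finset.sum_congr rfl fun i _ => Finset.sum_insert hx
    rw [h2, ih, h0, add_zero, zero_add, ← Finset.sum_add_distrib]
    exact Finset.sum_eq_zero fun i _ => h1 x i

theorem pkgStd : PkgStd.{u} := by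
  intro F _ n _ _ K hK
  obtain ⟨hT, hD, hU⟩ := hK
  classical
  set B : LinearMap.BilinForm F (n → F) := Matrix.toBilin' K with hB
  have hBapp : ∀ v w : n → F, B v w = ∑ i, ∑ j, v i * K i j * w j :=
    fun v w => Matrix.toBilin'_apply K v w
  have hKji : ∀ i j, K i j + K j i = 0 := by
    intro i j
    have h := congrFun (congrFun hT j) i
    simp only [Matrix.transpose_apply, Matrix.neg_apply] at h
    rw [h]; ring
  have hAlt : B.IsAlt := by
    intro v
    rw [hBapp]
    apply spu_sum_alt_zero (fun i j => v i * K i j * v j)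
    · intro i; simp [hD i]
    · intro i j
      have h := hKji i j
      linear_combination (v i * v j) * h
  obtain ⟨m, k, b, hef, hee, hff, hz⟩ := Helper99.alt_basis B hAlt
  have hk : k = 0 := by
    by_contra hk
    have hk' : 0 < k := Nat.pos_of_ne_zero hk
    have hz0 : b (Sum.inr ⟨0, hk'⟩) ≠ 0 := b.ne_zero _
    apply hz0
    have h1 : Matrix.vecMul (b (Sum.inr ⟨0, hk'⟩)) K = 0 := by
      funext j
      have h := hz ⟨0, hk'⟩ (Pi.single j 1)
      rw [hBapp] at h
      simp only [Pi.single_apply, mul_ite, mul_one, mul_zero, Finset.sum_ite_eq',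
        Finset.mem_univ, if_true] at h
      simp only [Matrix.vecMul, dotProduct, Pi.zero_apply]
      exact h
    obtain ⟨K', hK'⟩ := hU.exists_right_inv
    have h2 : Matrix.vecMul (b (Sum.inr ⟨0, hk'⟩)) (K * K') = 0 := by
      rw [← Matrix.vecMul_vecMul, h1, Matrix.zero_vecMul]
    rwa [hK', Matrix.vecMul_one] at h2
  subst hk
  set σ : (Fin m ⊕ Fin m) ⊕ Fin 0 ≃ Fin m ⊕ Fin m :=
    (Equiv.sumEmpty _ _).trans (Equiv.sumComm _ _) with hσ
  set b' : Basis (Fin m ⊕ Fin m) F (n → F) := b.reindex σ with hb'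
  have hb'l : ∀ j, b' (Sum.inl j) = b (Sum.inl (Sum.inr j)) := by
    intro j; rw [hb', Basis.reindex_apply]; rfl
  have hb'r : ∀ i, b' (Sum.inr i) = b (Sum.inl (Sum.inl i)) := by
    intro i; rw [hb', Basis.reindex_apply]; rfl
  refine ⟨m, (Pi.basisFun F n).toMatrix b', b'.toMatrix (Pi.basisFun F n), ?_, ?_, ?_, ?_⟩
  · have h1 := Module.finrank_eq_card_basis b'
    rw [Module.finrank_fintype_fun_eq_card] at h1
    rw [h1, Fintype.card_sum, Fintype.card_fin]; ring
  · exact Basis.toMatrix_mul_toMatrix_flip _ _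
  · exact Basis.toMatrix_mul_toMatrix_flip _ _
  · have hent : ∀ y y', (((Pi.basisFun F n).toMatrix b')ᵀ * K * (Pi.basisFun F n).toMatrix b') y y'
        = B (b' y) (b' y') := by
      intro y y'
      rw [hBapp, Matrix.mul_apply]
      simp only [Matrix.mul_apply, Matrix.transpose_apply, Basis.toMatrix_apply,
        Pi.basisFun_repr, Finset.sum_mul]
      exact Finset.sum_comm
    ext y y'
    rw [hent]
    rcases y with i | i <;> rcases y' with j | j
    · rw [hb'l, hb'l, hff]; simp [Matrix.J]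
    · rw [hb'l, hb'r, ← hAlt.neg_eq, hef]
      simp only [Matrix.J, Matrix.fromBlocks_apply₁₂, Matrix.neg_apply, Matrix.one_apply]
      by_cases hij : i = j
      · subst hij; simp
      · have hji : ¬ j = i := fun h => hij h.symm
        simp [hij, hji]
    · rw [hb'r, hb'l, hef]
      simp [Matrix.J, Matrix.one_apply]
    · rw [hb'r, hb'r, hee]; simp [Matrix.J]

theorem pkgCong : PkgCong.{u} := by
  intro F _ n n' _ _ _ _ K K' hK hK' hcard
  obtain ⟨m, P, Q, hc, hPQ, hQP, hJ⟩ := pkgStd F n K hK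
  obtain ⟨m', P', Q', hc', hPQ', hQP', hJ'⟩ := pkgStd F n' K' hK'
  have hm : m = m' := by omega
  subst hm
  refine ⟨P * Q', P' * Q, ?_, ?_, ?_⟩
  · calc P * Q' * (P' * Q) = P * (Q' * P') * Q := by simp only [Matrix.mul_assoc]
      _ = 1 := by rw [hQP', Matrix.mul_one, hPQ]
  · calc P' * Q * (P * Q') = P' * (Q * P) * Q' := by simp only [Matrix.mul_assoc]
      _ = 1 := by rw [hQP, Matrix.mul_one, hPQ']
  · have h1 : (P * Q')ᵀ * K * (P * Q') = Q'ᵀ * (Pᵀ * K * P) * Q' := by
      rw [Matrix.transpose_mul]; simp only [Matrix.mul_assoc]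
    have h2 : Q'ᵀ * (P'ᵀ * K' * P') * Q' = K' := by
      have h3 : Q'ᵀ * (P'ᵀ * K' * P') * Q' = (P' * Q')ᵀ * K' * (P' * Q') := by
        rw [Matrix.transpose_mul]; simp only [Matrix.mul_assoc]
      rw [h3, hPQ', Matrix.transpose_one, Matrix.one_mul, Matrix.mul_one]
    rw [h1, hJ, ← hJ', h2]

theorem pkgEven : PkgEven.{u} := by
  intro F _ n _ _ K hK
  obtain ⟨m, P, Q, hc, -, -, -⟩ := pkgStd F n K hK
  exact ⟨m, by omega⟩

end Cfsg.Agent.Lib.Helper23.SPU
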