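import Mathlib
import Cfsg.Agent.Lib.Helper19.SPU.Defs
import Cfsg.Agent.Lib.Helper23.SPU.Std

/-!
# SPU packages [TR1], [TR2]: transport of the counts along a congruence
-/

set_option autoImplicit false
set_option linter.unusedSectionVars false

namespace Cfsg.Agent.Lib.Helper23.SPU

open Matrix Cfsg.Agent.Lib.Helper19.SPU

universe u

section tr

variable {F : Type u} [Field F] {n n' : Type} [Fintype n] [DecidableEq n]
  [Fintype n'] [DecidableEq n']

/-- conjugation by a pair of mutually inverse rectangular matrices is a bijection -/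
theorem spu_card_conj (P : Matrix n n' F) (Q : Matrix n' n F) (hPQ : P * Q = 1) (hQP : Q * P = 1)
    (p : Matrix n n F → Prop) (p' : Matrix n' n' F → Prop)
    (h1 : ∀ g, p g → p' (Q * g * P)) (h2 : ∀ g', p' g' → p (P * g' * Q)) :
    Nat.card {g : Matrix n n F // p g} = Nat.card {g' : Matrix n' n' F // p' g'} := by
  refine Nat.card_congr
    { toFun := fun g => ⟨Q * g.1 * P, h1 g.1 g.2⟩
      invFun := fun g' => ⟨P * g'.1 * Q, h2 g'.1 g'.2⟩
      left_inv := ?_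
      right_inv := ?_ }
  · intro g
    apply Subtype.ext
    show P * (Q * g.1 * P) * Q = g.1
    calc P * (Q * g.1 * P) * Q = (P * Q) * g.1 * (P * Q) := by simp only [Matrix.mul_assoc]
      _ = g.1 := by rw [hPQ, Matrix.one_mul, Matrix.mul_one]
  · intro g'
    apply Subtype.ext
    show Q * (P * g'.1 * Q) * P = g'.1
    calc Q * (P * g'.1 * Q) * P = (Q * P) * g'.1 * (Q * P) := by simp only [Matrix.mul_assoc]
      _ = g'.1 := by rw [hQP, Matrix.one_mul, Matrix.mul_one]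

theorem spu_conj_mul (P : Matrix n n' F) (Q : Matrix n' n F) (hPQ : P * Q = 1)
    (X Y : Matrix n n F) : (Q * X * P) * (Q * Y * P) = Q * (X * Y) * P := by
  calc (Q * X * P) * (Q * Y * P) = Q * X * (P * Q) * Y * P := by simp only [Matrix.mul_assoc]
    _ = Q * (X * Y) * P := by rw [hPQ, Matrix.mul_one]; simp only [Matrix.mul_assoc]

theorem spu_conj_pow (P : Matrix n n' F) (Q : Matrix n' n F) (hPQ : P * Q = 1) (hQP : Q * P = 1)
    (X : Matrix n n F) (k : ℕ) : (Q * X * P) ^ k = Q * X ^ k * P := by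
  induction k with
  | zero => rw [pow_zero, pow_zero, Matrix.mul_one, hQP]
  | succ k ih => rw [pow_succ, ih, spu_conj_mul P Q hPQ, pow_succ]

theorem spu_conj_sub_one (P : Matrix n n' F) (Q : Matrix n' n F) (hQP : Q * P = 1)
    (g : Matrix n n F) : Q * g * P - 1 = Q * (g - 1) * P := by
  rw [Matrix.mul_sub, Matrix.sub_mul, Matrix.mul_one, hQP]

theorem spu_conj_nilp (P : Matrix n n' F) (Q : Matrix n' n F) (hPQ : P * Q = 1) (hQP : Q * P = 1)
    (X : Matrix n n F) (h : IsNilpotent X) : IsNilpotent (Q * X * P) := by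
  obtain ⟨k, hk⟩ := h
  exact ⟨k, by rw [spu_conj_pow P Q hPQ hQP, hk, Matrix.mul_zero, Matrix.zero_mul]⟩

theorem spu_conj_unit (P : Matrix n n' F) (Q : Matrix n' n F) (hPQ : P * Q = 1) (hQP : Q * P = 1)
    (X : Matrix n n F) (h : IsUnit X) : IsUnit (Q * X * P) := by
  obtain ⟨u, rfl⟩ := h
  refine ⟨⟨Q * u.1 * P, Q * u.inv * P, ?_, ?_⟩, rfl⟩
  · rw [spu_conj_mul P Q hPQ, u.val_inv, Matrix.mul_one, hQP]
  · rw [spu_conj_mul P Q hPQ, u.inv_val, Matrix.mul_one, hQP]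

theorem spu_conj_rank (P : Matrix n n' F) (Q : Matrix n' n F) (hPQ : P * Q = 1)
    (X : Matrix n n F) : (Q * X * P).rank = X.rank := by
  apply le_antisymm
  · exact (Matrix.rank_mul_le_left _ _).trans (Matrix.rank_mul_le_right _ _)
  · have h1 : X = P * (Q * X * P) * Q := by
      calc X = (P * Q) * X * (P * Q) := by rw [hPQ, Matrix.one_mul, Matrix.mul_one]
        _ = P * (Q * X * P) * Q := by simp only [Matrix.mul_assoc]
    calc X.rank = (P * (Q * X * P) * Q).rank := by rw [← h1]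
      _ ≤ (Q * X * P).rank :=
        (Matrix.rank_mul_le_left _ _).trans (Matrix.rank_mul_le_right _ _)

theorem spu_conj_isom (P : Matrix n n' F) (Q : Matrix n' n F) (hPQ : P * Q = 1)
    (K : Matrix n n F) (K' : Matrix n' n' F) (hK : Pᵀ * K * P = K')
    (g : Matrix n n F) (h : Isom K g) : Isom K' (Q * g * P) := by
  unfold Isom at h ⊢
  have hQP' : Qᵀ * Pᵀ = 1 := by rw [← Matrix.transpose_mul, hPQ, Matrix.transpose_one]
  calc (Q * g * P)ᵀ * K' * (Q * g * P)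
      = Pᵀ * gᵀ * (Qᵀ * Pᵀ) * K * (P * Q) * g * P := by
        rw [← hK, Matrix.transpose_mul, Matrix.transpose_mul]; simp only [Matrix.mul_assoc]
    _ = Pᵀ * (gᵀ * K * g) * P := by
        rw [hQP', hPQ, Matrix.mul_one, Matrix.mul_one]; simp only [Matrix.mul_assoc]
    _ = K' := by rw [h, hK]

theorem spu_conj_affA (P : Matrix n n' F) (Q : Matrix n' n F) (hPQ : P * Q = 1)
    (K : Matrix n n F) (K' : Matrix n' n' F) (hK : Pᵀ * K * P = K')
    (X : Matrix n n F) (h : AffA K X) : AffA K' (Q * X * P) := by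
  unfold AffA at h ⊢
  have hQP' : Qᵀ * Pᵀ = 1 := by rw [← Matrix.transpose_mul, hPQ, Matrix.transpose_one]
  have e1 : (Q * X * P)ᵀ * K' = Pᵀ * (Xᵀ * K) * P := by
    calc (Q * X * P)ᵀ * K' = Pᵀ * Xᵀ * (Qᵀ * Pᵀ) * K * P := by
          rw [← hK, Matrix.transpose_mul, Matrix.transpose_mul]; simp only [Matrix.mul_assoc]
      _ = Pᵀ * (Xᵀ * K) * P := by rw [hQP', Matrix.mul_one]; simp only [Matrix.mul_assoc]
  have e2 : K' * (Q * X * P) = Pᵀ * (K * X) * P := by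
    calc K' * (Q * X * P) = Pᵀ * K * (P * Q) * X * P := by
          rw [← hK]; simp only [Matrix.mul_assoc]
      _ = Pᵀ * (K * X) * P := by rw [hPQ, Matrix.mul_one]; simp only [Matrix.mul_assoc]
  have e3 : Pᵀ * (Xᵀ * K) * P + Pᵀ * (K * X) * P + Pᵀ * K * P
      = Pᵀ * (Xᵀ * K + K * X + K) * P := by
    simp only [Matrix.mul_add, Matrix.add_mul]
  rw [e1, e2, ← hK, e3, h, Matrix.mul_zero, Matrix.zero_mul]

theorem spu_conj_back (P : Matrix n n' F) (Q : Matrix n' n F) (hPQ : P * Q = 1)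
    (K : Matrix n n F) (K' : Matrix n' n' F) (hK : Pᵀ * K * P = K') : Qᵀ * K' * Q = K := by
  have hQP' : Qᵀ * Pᵀ = 1 := by rw [← Matrix.transpose_mul, hPQ, Matrix.transpose_one]
  calc Qᵀ * K' * Q = (Qᵀ * Pᵀ) * K * (P * Q) := by rw [← hK]; simp only [Matrix.mul_assoc]
    _ = K := by rw [hQP', hPQ, Matrix.one_mul, Matrix.mul_one]

end tr

theorem pkgTr1_of (hC : PkgCong.{u}) : PkgTr1.{u} := by
  intro F _ _ n n' _ _ _ _ K K' hK hK' hcard
  obtain ⟨P, Q, hPQ, hQP, hKK⟩ := hC F n n' K K' hK hK' hcard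
  have hKb := spu_conj_back P Q hPQ K K' hKK
  refine ⟨?_, ?_, ?_, ?_⟩
  · exact spu_card_conj P Q hPQ hQP _ _ (fun g h => spu_conj_isom P Q hPQ K K' hKK g h)
      (fun g h => spu_conj_isom Q P hQP K' K hKb g h)
  · refine spu_card_conj P Q hPQ hQP _ _ (fun g h => ⟨spu_conj_isom P Q hPQ K K' hKK g h.1, ?_⟩)
      (fun g h => ⟨spu_conj_isom Q P hQP K' K hKb g h.1, ?_⟩)
    · rw [spu_conj_sub_one P Q hQP]; exact spu_conj_nilp P Q hPQ hQP _ h.2
    · rw [spu_conj_sub_one Q P hPQ]; exact spu_conj_nilp Q P hQP hPQ _ h.2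
  · refine spu_card_conj P Q hPQ hQP _ _ (fun g h => ⟨spu_conj_isom P Q hPQ K K' hKK g h.1, ?_⟩)
      (fun g h => ⟨spu_conj_isom Q P hQP K' K hKb g h.1, ?_⟩)
    · rw [spu_conj_sub_one P Q hQP]; exact spu_conj_unit P Q hPQ hQP _ h.2
    · rw [spu_conj_sub_one Q P hPQ]; exact spu_conj_unit Q P hQP hPQ _ h.2
  · intro r
    refine spu_card_conj P Q hPQ hQP _ _ (fun g h => ⟨spu_conj_isom P Q hPQ K K' hKK g h.1, ?_⟩)
      (fun g h => ⟨spu_conj_isom Q P hQP K' K hKb g h.1, ?_⟩)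
    · rw [spu_conj_sub_one P Q hQP, spu_conj_pow P Q hPQ hQP, spu_conj_rank P Q hPQ, ← hcard]
      exact h.2
    · rw [spu_conj_sub_one Q P hPQ, spu_conj_pow Q P hQP hPQ, spu_conj_rank Q P hQP, hcard]
      exact h.2

theorem pkgTr2_of (hC : PkgCong.{u}) : PkgTr2.{u} := by
  intro F _ _ n n' _ _ _ _ K K' hK hK' hcard
  obtain ⟨P, Q, hPQ, hQP, hKK⟩ := hC F n n' K K' hK hK' hcard
  have hKb := spu_conj_back P Q hPQ K K' hKK
  have e1 : ∀ X : Matrix n n F, Q * X * P * (Q * X * P) + Q * X * P = Q * (X * X + X) * P := by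
    intro X
    rw [spu_conj_mul P Q hPQ, Matrix.mul_add, Matrix.add_mul]
  have e2 : ∀ X : Matrix n' n' F, P * X * Q * (P * X * Q) + P * X * Q = P * (X * X + X) * Q := by
    intro X
    rw [spu_conj_mul Q P hQP, Matrix.mul_add, Matrix.add_mul]
  refine ⟨?_, ?_, ?_, ?_⟩
  · exact spu_card_conj P Q hPQ hQP _ _ (fun g h => spu_conj_affA P Q hPQ K K' hKK g h)
      (fun g h => spu_conj_affA Q P hQP K' K hKb g h)
  · exact spu_card_conj P Q hPQ hQP _ _
      (fun g h => ⟨spu_conj_affA P Q hPQ K K' hKK g h.1, spu_conj_unit P Q hPQ hQP _ h.2⟩)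
      (fun g h => ⟨spu_conj_affA Q P hQP K' K hKb g h.1, spu_conj_unit Q P hQP hPQ _ h.2⟩)
  · refine spu_card_conj P Q hPQ hQP _ _ (fun g h => ⟨spu_conj_affA P Q hPQ K K' hKK g h.1, ?_⟩)
      (fun g h => ⟨spu_conj_affA Q P hQP K' K hKb g h.1, ?_⟩)
    · rw [e1]; exact spu_conj_nilp P Q hPQ hQP _ h.2
    · rw [e2]; exact spu_conj_nilp Q P hQP hPQ _ h.2
  · intro r
    refine spu_card_conj P Q hPQ hQP _ _ (fun g h => ⟨spu_conj_affA P Q hPQ K K' hKK g h.1, ?_⟩)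
      (fun g h => ⟨spu_conj_affA Q P hQP K' K hKb g h.1, ?_⟩)
    · rw [e1, spu_conj_pow P Q hPQ hQP, spu_conj_rank P Q hPQ, ← hcard]
      exact h.2
    · rw [e2, spu_conj_pow Q P hQP hPQ, spu_conj_rank Q P hQP, hcard]
      exact h.2

theorem pkgTr1 : PkgTr1.{u} := pkgTr1_of pkgCong

theorem pkgTr2 : PkgTr2.{u} := pkgTr2_of pkgCong

end Cfsg.Agent.Lib.Helper23.SPU
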